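import Cfsg.Agent.H616.M23.Val
import Cfsg.Agent.H845.HNTr

/-!
# (M,23) of S4929, [BETA]: the types of some elements of `A12 ≤ HN` (helper616)
-/

set_option autoImplicit false
set_option maxRecDepth 100000

open Subgroup

namespace Cfsg.Agent.H616.M23.TyTr

open Cfsg.Agent.H651.HNF Cfsg.Agent.H616.M23
open Cfsg.Agent.CpAutHN.Alt Cfsg.Agent.CpAutHN.Tr Cfsg.Agent.CpAutHN.Pairs Cfsg.Agent.H845.HNTr
open Equiv.Perm (mem_alternatingGroup)

variable {ty : Cfsg.Spor.HN → Ty}

/-- `7` divides the order of the centralizer of a 3-cycle -/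
theorem seven_X1 : 7 ∣ Nat.card ↥(centralizer ({Φ ⟨x1, x1_mem⟩} : Set Cfsg.Spor.HN)) := by
  have hm : cy [0, 1, 2, 3, 4, 5, 6] ∈ alternatingGroup (Fin 12) := by rw [mem_alternatingGroup]; decide +kernel
  have h1 : orderOf (Φ ⟨cy [0, 1, 2, 3, 4, 5, 6], hm⟩) = 7 := by
    have : Fact (Nat.Prime 7) := ⟨by norm_num⟩
    rw [orderOf_injective Φ Φ_inj]
    apply orderOf_eq_prime
    · apply Subtype.ext
      change cy [0, 1, 2, 3, 4, 5, 6] ^ 7 = 1
      decide +kernel
    · intro h
      have h2 : cy [0, 1, 2, 3, 4, 5, 6] = 1 := congrArg Subtype.val h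
      exact absurd h2 (by decide +kernel)
  have h2 : Φ ⟨cy [0, 1, 2, 3, 4, 5, 6], hm⟩ ∈ centralizer ({Φ ⟨x1, x1_mem⟩} : Set Cfsg.Spor.HN) :=
    mem_centralizer_singleton_iff.2 (comm_of hm x1_mem (by decide +kernel))
  have h3 : orderOf (⟨Φ ⟨cy [0, 1, 2, 3, 4, 5, 6], hm⟩, h2⟩ : ↥(centralizer ({Φ ⟨x1, x1_mem⟩} : Set Cfsg.Spor.HN))) ∣
      Nat.card ↥(centralizer ({Φ ⟨x1, x1_mem⟩} : Set Cfsg.Spor.HN)) := orderOf_dvd_natCard _
  rw [← Subgroup.orderOf_coe] at h3
  change orderOf (Φ ⟨cy [0, 1, 2, 3, 4, 5, 6], hm⟩) ∣ _ at h3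
  rwa [h1] at h3

theorem tThree {H : Type} [Group H] {ty : H → Ty} (T : Table H ty) {g : H} (h : orderOf g = 3) :
    ty g = .c3A ∨ ty g = .c3B := by
  have h1 : ty g ≠ .sing := fun h1 => by
    have := (T.sing g).1 h1
    rw [h] at this
    omega
  have h2 := T.ord g h1
  rw [h] at h2
  revert h2
  cases ty g <;> decide

theorem ty_X1 (T : Table Cfsg.Spor.HN ty) : ty (Φ ⟨x1, x1_mem⟩) = .c3A := by
  have ho : orderOf (Φ ⟨x1, x1_mem⟩) = 3 := orderOf_three x1_mem (by decide +kernel) (by decide +kernel)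
  rcases tThree T ho with h | h
  · exact h
  · exfalso
    have h1 := T.cent _ (by rw [h]; decide : ty (Φ ⟨x1, x1_mem⟩) ≠ .sing)
    have h2 := seven_X1
    rw [h1, h] at h2
    exact absurd h2 (by decide +kernel)

theorem ty_X3 (T : Table Cfsg.Spor.HN ty) : ty (Φ ⟨x3, x3_mem⟩) = .c3B := by
  have ho : orderOf (Φ ⟨x3, x3_mem⟩) = 3 := orderOf_three x3_mem (by decide +kernel) (by decide +kernel)
  rcases tThree T ho with h | h
  · exfalso
    have h1 := tr_conj (T.conj _ _ (h.trans (ty_X1 T).symm) (by rw [h]; decide) (by rw [h]; decide))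
    rw [tr_x3, tr_x1] at h1
    exact absurd h1 (by decide)
  · exact h

/-- the type of an element of order 3 from the trace -/
theorem ty_three (T : Table Cfsg.Spor.HN ty) {h : Cfsg.Spor.HN} (ho : orderOf h = 3) :
    (tr h = 7 → ty h = .c3A) ∧ (tr h = 29 → ty h = .c3B) := by
  constructor
  · intro ht
    rcases tThree T ho with h1 | h1
    · exact h1
    · exfalso
      have h2 := tr_conj (T.conj _ _ (h1.trans (ty_X3 T).symm) (by rw [h1]; decide) (by rw [h1]; decide))
      rw [tr_x3, ht] at h2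
      exact absurd h2 (by decide)
  · intro ht
    rcases tThree T ho with h1 | h1
    · exfalso
      have h2 := tr_conj (T.conj _ _ (h1.trans (ty_X1 T).symm) (by rw [h1]; decide) (by rw [h1]; decide))
      rw [tr_x1, ht] at h2
      exact absurd h2 (by decide)
    · exact h1

/-- the trace of an element of order 3 of `A12` -/
theorem tr_three_card {f : Equiv.Perm (Fin 12)} (hf : f ∈ alternatingGroup (Fin 12)) (h3 : f ^ 3 = 1) (h1 : f ≠ 1) :
    tr (Φ ⟨f, hf⟩) = if f.support.card = 9 then 29 else 7 := by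
  obtain ⟨k1, k2⟩ := cycleType_of_cube h3
  have h4 : f.support.card ≤ 12 := by
    have := f.support.card_le_univ
    rwa [Fintype.card_fin] at this
  have h5 : 0 < f.cycleType.card := by
    rw [Nat.pos_iff_ne_zero, Ne, Equiv.Perm.card_cycleType_eq_zero]
    exact h1
  have h6 : f.cycleType.card = 1 ∨ f.cycleType.card = 2 ∨ f.cycleType.card = 3 ∨ f.cycleType.card = 4 := by omega
  rcases h6 with h6 | h6 | h6 | h6
  · have h7 : IsConj f (wp [0]) := isConj_of_cube h3 c1_3 (by rw [Cfsg.Agent.H845.HNTr.s1]; omega)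
    rw [tr_of_even (l := [0]) (by decide) hf h7.symm h7 (s := cy [1, 2]) (by decide +kernel) (by decide +kernel),
      if_neg (by omega)]
    exact tr_one
  · have h7 : IsConj f (wp l2) := isConj_of_cube h3 c2_3 (by rw [s2]; omega)
    rw [tr_of_even (l := l2) (by decide) hf h7.symm h7 (s := cy [4, 5]) (by decide +kernel) (by decide +kernel),
      if_neg (by omega)]
    exact tr_l2
  · have h7 : IsConj f (wp l3) := isConj_of_cube h3 c3_3 (by rw [Cfsg.Agent.H845.HNTr.s3]; omega)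
    rw [tr_of_even (l := l3) (by decide) hf h7.symm h7 (s := cy [7, 8]) (by decide +kernel) (by decide +kernel),
      if_pos (by omega)]
    exact tr_three
  · have h7 : IsConj f (wp l4) := isConj_of_cube h3 c4_3 (by rw [s4]; omega)
    rw [tr_of_even (l := l4) (by decide) hf h7.symm h7 (s := cy [0, 1] * cy [4, 5] * cy [7, 11]) (by decide +kernel)
      (by decide +kernel), if_neg (by omega)]
    exact tr_l4

/-- **the types of the elements of order 3 of `A12`** -/
theorem ty_cube (T : Table Cfsg.Spor.HN ty) {f : Equiv.Perm (Fin 12)} (hf : f ∈ alternatingGroup (Fin 12))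
    (h3 : f ^ 3 = 1) (h1 : f ≠ 1) : ty (Φ ⟨f, hf⟩) = if f.support.card = 9 then .c3B else .c3A := by
  have ho : orderOf (Φ ⟨f, hf⟩) = 3 := orderOf_three hf (by rw [← h3, pow_succ, pow_two]) h1
  have h2 := tr_three_card hf h3 h1
  split_ifs with h
  · rw [if_pos h] at h2
    exact (ty_three T ho).2 h2
  · rw [if_neg h] at h2
    exact (ty_three T ho).1 h2

/-- the type of `(01)(23)(45)(67)` -/
theorem ty_s1 (T : Table Cfsg.Spor.HN ty) : ty (Φ ⟨Cfsg.Agent.CpAutHN.Alt.s1, s1_mem⟩) = .c2B := by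
  have ho : orderOf (Φ ⟨Cfsg.Agent.CpAutHN.Alt.s1, s1_mem⟩) = 2 :=
    orderOf_two s1_mem (by decide +kernel) (by decide +kernel)
  have h1 := isConj_W0_of_tr ho tr_s1
  rcases tTwo T ho with h | h
  · exfalso
    have h2 := T.cent _ (by rw [h]; decide : ty (Φ ⟨Cfsg.Agent.CpAutHN.Alt.s1, s1_mem⟩) ≠ .sing)
    rw [Cfsg.Agent.CpAutHN.Pairs.card_cent_conj h1, Cfsg.Agent.KFacts.HN.PCard.card_centralizer, h] at h2
    exact absurd h2 (by decide +kernel)
  · exact h

/-- the types of elements of order 9 -/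
theorem tNine {H : Type} [Group H] {ty : H → Ty} (T : Table H ty) {g : H} (h : orderOf g = 9) : ty g = .c9 := by
  have h1 : ty g ≠ .sing := fun h1 => by
    have := (T.sing g).1 h1
    rw [h] at this
    omega
  have h2 := T.ord g h1
  rw [h] at h2
  revert h2
  cases ty g <;> decide

/-- the types of elements of order 6 -/
theorem tSix {H : Type} [Group H] [Finite H] {ty : H → Ty} (T : Table H ty) {g : H} (h : orderOf g = 6) (h3 : ty (g ^ 3) = .c2B) :
    (ty (g ^ 2) = .c3A → ty g = .c6B) ∧ (ty (g ^ 2) = .c3B → ty g = .c6C) := by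
  have h1 : ty g ≠ .sing := fun h1 => by
    have := (T.sing g).1 h1
    rw [h] at this
    omega
  have h2 := T.ord g h1
  rw [tCu T h1] at h3
  rw [tSq T h1]
  rw [h] at h2
  revert h2 h3
  cases ty g <;> decide

end Cfsg.Agent.H616.M23.TyTr
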