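import Cfsg.Agent.H616.M23.Bt

/-!
# (M,23) of S4929, [BETA]: from a word to an element of `T` (helper616)
-/

set_option autoImplicit false

open Cfsg Subgroup

namespace Cfsg.Agent.H616.M23

open Cfsg.Agent.Characters.Core Cfsg.Agent.H493.RatB

/-- `w` of order `5 n`, `5 ∤ n`, its `5`-part conjugate to `u`: an element `y` of `T` of order `n` with
`χ (u y^k) = χ (w^k)` for `5 ∤ k`. -/
theorem exists_y {G : Type} [Group G] [Finite G] {χ : G → ℂ} (hχ : IsCharacter G χ) (hr : RatV χ) {u : G}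
    {T : Subgroup G} (hu : orderOf u = 5) (hpow : ∀ k : ℕ, ¬ 5 ∣ k → IsConj u (u ^ k))
    (hT : ∀ (g : G) (n : ℕ), g ^ n = 1 → ¬ 5 ∣ n → g * u = u * g → g ∈ T) {w : G} {n : ℕ} (hn : ¬ 5 ∣ n)
    (hw : orderOf w = 5 * n) (hc : IsConj (w ^ n) u) :
    ∃ y : T, orderOf y = n ∧ ∀ k : ℕ, ¬ 5 ∣ k → χ (u * ((y ^ k : T) : G)) = χ (w ^ k) := by
  have hn0 : n ≠ 0 := fun h => hn (h ▸ dvd_zero 5)
  have hcop := cop5 hn
  -- `j n = 1` modulo 5, `l 5 = 1` modulo n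
  obtain ⟨j, hj⟩ : ∃ j : ℕ, n * j ≡ 1 [MOD 5] := by
    obtain ⟨j, hj⟩ := Nat.exists_mul_mod_eq_one_of_coprime hcop.symm (by norm_num)
    exact ⟨j, by rw [Nat.ModEq, hj.2]⟩
  obtain ⟨x, hx1, hx2⟩ := Nat.chineseRemainder hcop 0 1
  obtain ⟨l, rfl⟩ : 5 ∣ x := (Nat.modEq_zero_iff_dvd).1 hx1
  have hj5 : ¬ 5 ∣ j := by
    rintro ⟨i, rfl⟩
    have h1 : n * (5 * i) ≡ 0 [MOD 5] := (Nat.modEq_zero_iff_dvd).2 ⟨n * i, by ring⟩
    have h2 := h1.symm.trans hj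
    simp [Nat.ModEq] at h2
  set a : G := w ^ (n * j) with ha
  set y : G := w ^ (5 * l) with hy
  have hay : a * y = w := by
    rw [ha, hy, ← pow_add]
    conv_rhs => rw [← pow_one w]
    rw [pow_eq_pow_iff_modEq, hw]
    refine (Nat.modEq_and_modEq_iff_modEq_mul hcop).1 ⟨?_, ?_⟩
    · have h1 := hj.add hx1
      exact h1
    · have h1 : n * j ≡ 0 [MOD n] := (Nat.modEq_zero_iff_dvd).2 ⟨j, rfl⟩
      have h2 := h1.add hx2
      rwa [zero_add] at h2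
  have hcomm : Commute a y := (Commute.refl w).pow_pow _ _
  have hwn : orderOf (w ^ n) = 5 := by
    rw [orderOf_pow, hw, Nat.gcd_eq_right (Dvd.intro_left 5 rfl), Nat.mul_div_cancel _ (Nat.pos_of_ne_zero hn0)]
  have hao : orderOf a = 5 := by
    rw [ha, pow_mul, Nat.Coprime.orderOf_pow (by rw [hwn]; exact cop5 hj5), hwn]
  have hyo : orderOf y = n := by
    have h1 : y = (w ^ 5) ^ l := by rw [hy, pow_mul]
    have h2 : orderOf (w ^ 5) = n := by
      rw [orderOf_pow, hw, Nat.gcd_eq_right (Dvd.intro n rfl), Nat.mul_div_cancel_left _ (by norm_num)]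
    rw [h1, Nat.Coprime.orderOf_pow, h2]
    rw [h2, Nat.coprime_comm]
    have h3 : Nat.gcd (5 * l) n = Nat.gcd 1 n := Nat.ModEq.gcd_eq hx2
    rw [Nat.gcd_one_left] at h3
    exact Nat.Coprime.coprime_dvd_left (Dvd.intro_left 5 rfl) h3
  have hau : IsConj a u := by
    obtain ⟨c, hc'⟩ := isConj_iff.1 hc
    have h1 : IsConj ((w ^ n) ^ j) (u ^ j) := isConj_iff.2 ⟨c, by rw [← conj_pow, hc']⟩
    rw [← pow_mul] at h1
    exact h1.trans (hpow j hj5).symm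
  obtain ⟨c, hc'⟩ := isConj_iff.1 hau
  have hcl := isCharacter_isClassFunction hχ
  have hz : c * y * c⁻¹ ∈ T := by
    refine hT _ n ?_ hn ?_
    · rw [conj_pow, ← hyo, pow_orderOf_eq_one]
      group
    · rw [← hc']
      calc c * y * c⁻¹ * (c * a * c⁻¹) = c * (y * a) * c⁻¹ := by group
        _ = c * (a * y) * c⁻¹ := by rw [hcomm.eq]
        _ = c * a * c⁻¹ * (c * y * c⁻¹) := by group
  refine ⟨⟨c * y * c⁻¹, hz⟩, ?_, ?_⟩
  · rw [Subgroup.orderOf_mk]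
    rw [← hyo]
    exact MulEquiv.orderOf_eq (MulAut.conj c) y
  · intro k hk
    show χ (u * (c * y * c⁻¹) ^ k) = _
    have h1 : u * (c * y * c⁻¹) ^ k = c * (a * y ^ k) * c⁻¹ := by
      rw [conj_pow, ← hc']
      group
    rw [h1, hcl]
    have h2 : w ^ k = a ^ k * y ^ k := by rw [← hay, hcomm.mul_pow]
    rw [h2]
    refine (val_u hχ hr hao (hcomm.pow_right k) ?_ hk).symm
    intro h5
    apply hn
    rw [← hyo]
    exact h5.trans (orderOf_pow_dvd k)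

end Cfsg.Agent.H616.M23
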